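import Cfsg.Agent.RealChar.Indicator
import Mathlib.Analysis.Matrix.PosDef
import Mathlib.LinearAlgebra.Eigenspace.Triangularizable

/-!
# Indicator one means afforded by a real representation
-/

set_option autoImplicit false
set_option linter.style.haveILetI false
set_option linter.unusedSectionVars false

open scoped ComplexConjugate Matrix ComplexOrder
open Module

namespace Cfsg.Agent.Char

universe u

variable {G : Type u} [Group G] [Fintype G]

/-- Conjugate linear involutions commuting with a matrix group give a real form. -/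
theorem exists_real_form {n : ℕ} (M : G →* Matrix (Fin n) (Fin n) ℂ)
    (J : (Fin n → ℂ) → (Fin n → ℂ)) (hadd : ∀ v w, J (v + w) = J v + J w)
    (hsmul : ∀ (z : ℂ) v, J (z • v) = conj z • J v) (hJJ : ∀ v, J (J v) = v)
    (hJM : ∀ g v, J (M g *ᵥ v) = M g *ᵥ J v) :
    ∃ (m : ℕ) (ρ : Representation ℝ G (Fin m → ℝ)),
      ∀ g, ((LinearMap.trace ℝ (Fin m → ℝ) (ρ g) : ℝ) : ℂ) = (M g).trace := by
  classical
  have hJ0 : J 0 = 0 := by
    have := hsmul 0 0; simpa using this
  let V : Submodule ℝ (Fin n → ℂ) :=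
    { carrier := {v | J v = v}
      zero_mem' := hJ0
      add_mem' := fun {a b} ha hb => by
        show J (a + b) = a + b
        rw [hadd, ha, hb]
      smul_mem' := fun r v hv => by
        show J (r • v) = r • v
        rw [← Complex.coe_smul, hsmul, Complex.conj_ofReal, hv] }
  let b := Module.finBasis ℝ V
  let e : Fin (finrank ℝ V) → (Fin n → ℂ) := fun i => (b i : Fin n → ℂ)
  have hfix : ∀ i, J (e i) = e i := fun i => (b i).2
  have hJsum : ∀ z : Fin (finrank ℝ V) → ℂ, J (∑ i, z i • e i) = ∑ i, conj (z i) • e i := by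
    intro z
    let Jh : (Fin n → ℂ) →+ (Fin n → ℂ) := ⟨⟨J, hJ0⟩, hadd⟩
    show Jh (∑ i, z i • e i) = _
    rw [map_sum]
    exact Finset.sum_congr rfl fun i _ => by
      show J (z i • e i) = _
      rw [hsmul, hfix]
  have hreal : ∀ r : Fin (finrank ℝ V) → ℝ, (∑ i, (r i : ℂ) • e i) = 0 → r = 0 := by
    intro r hr
    have h1 : ∑ i, r i • b i = 0 := by
      apply Subtype.ext
      simpa [e, Complex.coe_smul] using hr
    funext i
    exact Fintype.linearIndependent_iff.1 b.linearIndependent r h1 i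
  have hli : LinearIndependent ℂ e := by
    rw [Fintype.linearIndependent_iff]
    intro z hz i
    have h2 : ∑ i, conj (z i) • e i = 0 := by rw [← hJsum, hz, hJ0]
    have hre : (fun i => (z i).re) = 0 := hreal _ (by
      have h3 : ∀ i, ((z i).re : ℂ) • e i = (1 / 2 : ℂ) • (z i • e i + conj (z i) • e i) :=
        fun i => by rw [← add_smul, Complex.add_conj, smul_smul]; congr 1; push_cast; ring
      simp only [h3, ← Finset.smul_sum, Finset.sum_add_distrib, hz, h2, add_zero, smul_zero])
    have him : (fun i => (z i).im) = 0 := hreal _ (by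
      have h3 : ∀ i, ((z i).im : ℂ) • e i =
          (1 / (2 * Complex.I) : ℂ) • (z i • e i - conj (z i) • e i) := fun i => by
        rw [← sub_smul, Complex.sub_conj, smul_smul]
        congr 1
        push_cast
        field_simp
      simp only [h3, ← Finset.smul_sum, Finset.sum_sub_distrib, hz, h2, sub_zero, smul_zero])
    exact Complex.ext (congrFun hre i) (congrFun him i)
  have hmem : ∀ w, J w = w → w ∈ Submodule.span ℂ (Set.range e) := by
    intro w hw
    have h1 := congrArg (Subtype.val : V → Fin n → ℂ) (b.sum_repr ⟨w, hw⟩)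
    simp only [Submodule.coe_sum, Submodule.coe_smul] at h1
    rw [← h1]
    refine Submodule.sum_mem _ fun i _ => ?_
    rw [← Complex.coe_smul]
    exact Submodule.smul_mem _ _ (Submodule.subset_span ⟨i, rfl⟩)
  have hspan : ⊤ ≤ Submodule.span ℂ (Set.range e) := by
    intro v _
    have h1 : v + J v ∈ Submodule.span ℂ (Set.range e) := hmem _ (by rw [hadd, hJJ, add_comm])
    have h2 : Complex.I • (v - J v) ∈ Submodule.span ℂ (Set.range e) := hmem _ (by
      rw [hsmul, sub_eq_add_neg, hadd, show -J v = (-1 : ℂ) • J v from (neg_one_smul ℂ _).symm,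
        hsmul, hJJ]
      simp only [Complex.conj_I, map_neg, map_one, smul_add, smul_smul]
      module)
    have e1 : v = (1 / 2 : ℂ) • (v + J v) +
        (1 / (2 * Complex.I)) • (Complex.I • (v - J v)) := by
      rw [smul_smul, show (1 / (2 * Complex.I)) * Complex.I = (1 / 2 : ℂ) from by field_simp]
      module
    rw [e1]
    exact add_mem (Submodule.smul_mem _ _ h1) (Submodule.smul_mem _ _ h2)
  let B : Basis (Fin (finrank ℝ V)) ℂ (Fin n → ℂ) := Basis.mk hli hspan
  let T : G → Matrix (Fin (finrank ℝ V)) (Fin (finrank ℝ V)) ℂ := fun g =>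
    LinearMap.toMatrix B B (Matrix.toLin' (M g))
  have hTreal : ∀ g i j, conj (T g i j) = T g i j := by
    intro g i j
    simp only [T, LinearMap.toMatrix_apply, Matrix.toLin'_apply]
    have hBe : ∀ k, B k = e k := fun k => Basis.mk_apply _ _ _
    have hw : J (M g *ᵥ B j) = M g *ᵥ B j := by rw [hJM, hBe, hfix]
    generalize M g *ᵥ B j = w at hw ⊢
    have h1 : ∑ k, conj (B.repr w k) • B k = w := by
      conv_rhs => rw [← hw, ← B.sum_repr w]
      simp only [hBe, hJsum]
    have h2 := congrArg (fun x => B.repr x i) h1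
    simpa [Finsupp.single_apply] using h2
  let R : G → Matrix (Fin (finrank ℝ V)) (Fin (finrank ℝ V)) ℝ := fun g => (T g).map Complex.re
  have hRT : ∀ g, (R g).map (algebraMap ℝ ℂ) = T g := fun g => by
    ext i j
    exact Complex.conj_eq_iff_re.1 (hTreal g i j)
  have hinj : Function.Injective
      (fun X : Matrix (Fin (finrank ℝ V)) (Fin (finrank ℝ V)) ℝ => X.map (algebraMap ℝ ℂ)) :=
    fun X Y h => by
      ext i j
      exact RingHom.injective (algebraMap ℝ ℂ) (congrFun (congrFun h i) j)
  have hR1 : R 1 = 1 := hinj (by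
    show (R 1).map (algebraMap ℝ ℂ) = (1 : Matrix _ _ ℝ).map (algebraMap ℝ ℂ)
    rw [hRT, Matrix.map_one _ (map_zero _) (map_one _)]
    simp [T])
  have hRmul : ∀ g h, R (g * h) = R g * R h := fun g h => hinj (by
    show (R (g * h)).map (algebraMap ℝ ℂ) = (R g * R h).map (algebraMap ℝ ℂ)
    rw [hRT, Matrix.map_mul, hRT, hRT]
    simp only [T, map_mul, Matrix.toLin'_mul]
    exact LinearMap.toMatrix_comp _ _ _ _ _)
  refine ⟨finrank ℝ V,
    (Matrix.toLinAlgEquiv' : Matrix (Fin (finrank ℝ V)) (Fin (finrank ℝ V)) ℝ ≃ₐ[ℝ]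
      _).toMulEquiv.toMonoidHom.comp
      { toFun := R, map_one' := hR1, map_mul' := hRmul }, fun g => ?_⟩
  show ((LinearMap.trace ℝ _ (Matrix.toLin' (R g)) : ℝ) : ℂ) = _
  rw [Matrix.trace_toLin'_eq, show ((R g).trace : ℂ) = (T g).trace from by
    rw [← hRT]; simp [Matrix.trace], show (T g).trace = LinearMap.trace ℂ _ (Matrix.toLin' (M g))
      from (LinearMap.trace_eq_matrix_trace ℂ B _).symm, Matrix.trace_toLin'_eq]

/-- The average of the forms `(M g)ᵀ Y (M g)` is invariant. -/
theorem formProj_invariant {n : ℕ} (M : G →* Matrix (Fin n) (Fin n) ℂ)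
    {Y : Matrix (Fin n) (Fin n) ℂ} (hY : RealChar.formProj M 1 Y = Y) (k : G) :
    (M k)ᵀ * Y * M k = Y := by
  rw [RealChar.formProj_apply] at hY
  conv_rhs => rw [← hY]
  conv_lhs => rw [← hY]
  simp only [one_mul, Matrix.mul_smul, Matrix.smul_mul, Matrix.mul_sum, Matrix.sum_mul]
  congr 1
  refine Fintype.sum_equiv (Equiv.mulRight k) _ _ fun g => ?_
  rw [Equiv.coe_mulRight, map_mul, Matrix.transpose_mul]
  noncomm_ring

theorem fsNu_eq_one_iff_real {χ : G → ℂ} (hχ : IsIrrCharacter G χ) :
    RealChar.fsNu χ = 1 ↔ ∃ (n : ℕ) (ρ : Representation ℝ G (Fin n → ℝ)),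
      ∀ g : G, ((LinearMap.trace ℝ (Fin n → ℝ) (ρ g) : ℝ) : ℂ) = χ g := by
  classical
  constructor
  · intro hν
    obtain ⟨n, M, htr, hirr⟩ := RealChar.exists_matrix_rep hχ
    rcases RealChar.formProj_cases M 1 (one_mul 1) (fun g => by simp) χ hχ
      (fun g => by rw [one_mul, htr]) with ⟨-, h0, -⟩ | ⟨-, c, Y, -, hc, hY0, hYfix, hall⟩
    · rw [hν] at h0; exact absurd h0 one_ne_zero
    have hYT : Yᵀ = Y := by rw [hall Y hYfix, ← hc, hν, one_smul]
    have hYinv := formProj_invariant M hYfix
    set H : Matrix (Fin n) (Fin n) ℂ := ∑ g : G, (M g)ᴴ * M g with hH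
    have hHinv : ∀ k, (M k)ᴴ * H * M k = H := fun k => by
      simp only [hH, Matrix.mul_sum, Matrix.sum_mul]
      refine Fintype.sum_equiv (Equiv.mulRight k) _ _ fun g => ?_
      rw [Equiv.coe_mulRight, map_mul, Matrix.conjTranspose_mul]
      noncomm_ring
    have hHpd : H.PosDef := by
      have hsplit : H = 1 + ∑ g ∈ Finset.univ.erase (1 : G), (M g)ᴴ * M g := by
        rw [hH, ← Finset.add_sum_erase _ _ (Finset.mem_univ (1 : G)), map_one,
          Matrix.conjTranspose_one, one_mul]
      rw [hsplit]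
      exact Matrix.PosDef.one.add_posSemidef
        (Matrix.posSemidef_sum _ fun g _ => Matrix.posSemidef_conjTranspose_mul_self _)
    set W : Matrix (Fin n) (Fin n) ℂ := (Hᵀ)⁻¹ * Y with hW
    have hHT : IsUnit (Hᵀ).det := by
      rw [Matrix.det_transpose, ← Matrix.isUnit_iff_isUnit_det]; exact hHpd.isUnit
    have hHW : Hᵀ * W = Y := by rw [hW, ← mul_assoc, Matrix.mul_nonsing_inv _ hHT, one_mul]
    have hWA : ∀ g, W * M g = (M g).map conj * W := by
      intro g
      have h1 : (M g)ᵀ * (Hᵀ * ((M g).map conj * W)) = (M g)ᵀ * (Y * M g) := by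
        have h2 := congrArg Matrix.transpose (hHinv g)
        rw [Matrix.transpose_mul, Matrix.transpose_mul,
          show ((M g)ᴴ)ᵀ = (M g).map conj from rfl] at h2
        calc (M g)ᵀ * (Hᵀ * ((M g).map conj * W))
            = ((M g)ᵀ * (Hᵀ * (M g).map conj)) * W := by noncomm_ring
          _ = Hᵀ * W := by rw [h2]
          _ = (M g)ᵀ * (Y * M g) := by rw [hHW, ← mul_assoc, hYinv g]
      have hu : IsUnit (M g)ᵀ :=
        (Matrix.isUnit_iff_isUnit_det _).2 (by
          rw [Matrix.det_transpose, ← Matrix.isUnit_iff_isUnit_det]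
          exact (Group.isUnit g).map M)
      have h3 := hu.mul_left_cancel h1
      apply ((Matrix.isUnit_iff_isUnit_det _).2 hHT).mul_left_cancel
      rw [← mul_assoc, hHW, h3]
    set C : Matrix (Fin n) (Fin n) ℂ := W.map conj * W with hC
    have hCA : ∀ g, C * M g = M g * C := by
      intro g
      have h1 := congrArg (fun X : Matrix (Fin n) (Fin n) ℂ => X.map conj) (hWA g)
      simp only [Matrix.map_mul, Matrix.map_map] at h1
      rw [show (M g).map (conj ∘ conj) = M g from by ext i j; simp] at h1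
      rw [hC, mul_assoc, hWA g, ← mul_assoc, h1, mul_assoc]
    haveI : Nonempty (Fin n) := by
      rcases n with - | n
      · exact absurd (by ext i; exact i.elim0 : Y = 0) hY0
      · exact ⟨0⟩
    obtain ⟨l, hl⟩ := Module.End.exists_eigenvalue (Matrix.toLin' C)
    have hCl : ∀ v, C *ᵥ v = l • v := by
      intro v
      rcases hirr (Module.End.eigenspace (Matrix.toLin' C) l) (fun g w hw => by
        rw [Module.End.mem_eigenspace_iff, Matrix.toLin'_apply] at hw ⊢
        rw [Matrix.mulVec_mulVec, hCA, ← Matrix.mulVec_mulVec, hw, Matrix.mulVec_smul]) with h | h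
      · exact absurd h hl
      · have : v ∈ Module.End.eigenspace (Matrix.toLin' C) l := by rw [h]; trivial
        rwa [Module.End.mem_eigenspace_iff, Matrix.toLin'_apply] at this
    obtain ⟨v, hv⟩ : ∃ v, Y *ᵥ v ≠ 0 := by
      by_contra hcon
      simp only [not_exists, not_not] at hcon
      exact hY0 (Matrix.ext_of_mulVec_single fun i => by rw [hcon, Matrix.zero_mulVec])
    have hv0 : v ≠ 0 := fun h => hv (by rw [h, Matrix.mulVec_zero])
    have hYW : Yᴴ * (Hᵀ)⁻¹ * Y = H * C := by
      have h1 : H * W.map conj = Y.map conj := by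
        have h2 := congrArg (fun X : Matrix (Fin n) (Fin n) ℂ => X.map conj) hHW
        simp only [Matrix.map_mul] at h2
        rw [show Hᵀ.map conj = H from hHpd.1] at h2
        exact h2
      rw [hC, ← mul_assoc, h1, mul_assoc, ← hW]
      congr 1
      conv_lhs => rw [← hYT]
      rfl
    have ha : 0 < star (Y *ᵥ v) ⬝ᵥ ((Hᵀ)⁻¹ *ᵥ (Y *ᵥ v)) :=
      (hHpd.transpose.inv).dotProduct_mulVec_pos hv
    have hb : 0 < star v ⬝ᵥ (H *ᵥ v) := hHpd.dotProduct_mulVec_pos hv0
    have hab : star (Y *ᵥ v) ⬝ᵥ ((Hᵀ)⁻¹ *ᵥ (Y *ᵥ v)) = l * (star v ⬝ᵥ (H *ᵥ v)) := by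
      rw [Matrix.star_mulVec, ← Matrix.dotProduct_mulVec, Matrix.mulVec_mulVec,
        Matrix.mulVec_mulVec, hYW, ← Matrix.mulVec_mulVec, hCl, Matrix.mulVec_smul,
        dotProduct_smul, smul_eq_mul]
    obtain ⟨r, hr, hlr⟩ : ∃ r : ℝ, 0 < r ∧ l = (r : ℂ) := by
      rw [hab] at ha
      obtain ⟨ha1, ha2⟩ := Complex.pos_iff.1 ha
      obtain ⟨hb1, hb2⟩ := Complex.pos_iff.1 hb
      rw [Complex.mul_im, ← hb2, mul_zero, zero_add] at ha2
      rw [Complex.mul_re, ← hb2, mul_zero, sub_zero] at ha1
      refine ⟨l.re, pos_of_mul_pos_left ha1 hb1.le, Complex.ext rfl ?_⟩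
      have := (mul_eq_zero.1 ha2.symm).resolve_right hb1.ne'
      simpa using this
    let J : (Fin n → ℂ) → (Fin n → ℂ) := fun w => ((Real.sqrt r)⁻¹ : ℂ) • star (W *ᵥ w)
    have hstar : ∀ (X : Matrix (Fin n) (Fin n) ℂ) (w : Fin n → ℂ),
        star (X *ᵥ w) = X.map conj *ᵥ star w := fun X w => by
      funext i
      simp [Matrix.mulVec, dotProduct]
    obtain ⟨m, ρ, hρ⟩ := exists_real_form M J (fun w w' => by
        simp only [J, Matrix.mulVec_add, star_add, smul_add])
      (fun z w => by
        simp only [J, Matrix.mulVec_smul, star_smul, smul_smul]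
        rw [mul_comm, ← starRingEnd_apply])
      (fun w => by
        simp only [J, Matrix.mulVec_smul, star_smul, smul_smul]
        rw [hstar W (star (W *ᵥ w)), star_star]
        rw [Matrix.mulVec_mulVec, ← hC, hCl, smul_smul, hlr]
        have : ((Real.sqrt r : ℂ))⁻¹ * (star ((Real.sqrt r : ℂ))⁻¹) * (r : ℂ) = 1 := by
          rw [← starRingEnd_apply, map_inv₀, Complex.conj_ofReal]
          have h0 : (Real.sqrt r : ℂ) ≠ 0 := by
            exact_mod_cast (Real.sqrt_ne_zero'.2 hr)
          field_simp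
          rw [← Complex.ofReal_pow, Real.sq_sqrt hr.le]
        rw [this, one_smul])
      (fun g w => by
        simp only [J, Matrix.mulVec_smul]
        congr 1
        rw [Matrix.mulVec_mulVec, hWA, ← Matrix.mulVec_mulVec, hstar, Matrix.map_map,
          show (M g).map (conj ∘ conj) = M g from by ext i j; simp])
    exact ⟨m, ρ, fun g => (hρ g).trans (htr g)⟩
  · rintro ⟨n, ρ, hρ⟩
    let A : G →* Matrix (Fin n) (Fin n) ℝ :=
      (LinearMap.toMatrixAlgEquiv' (R := ℝ) (n := Fin n)).toMulEquiv.toMonoidHom.comp ρ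
    let M : G →* Matrix (Fin n) (Fin n) ℂ :=
      (algebraMap ℝ ℂ).mapMatrix.toMonoidHom.comp A
    have htr : ∀ g, (M g).trace = χ g := fun g => by
      rw [← hρ g, LinearMap.trace_eq_matrix_trace ℝ (Pi.basisFun ℝ (Fin n)),
        LinearMap.toMatrix_eq_toMatrix']
      show ((LinearMap.toMatrix' (ρ g)).map (algebraMap ℝ ℂ)).trace = _
      simp [Matrix.trace]
    rcases RealChar.formProj_cases M 1 (one_mul 1) (fun g => by simp) χ hχ
      (fun g => by rw [one_mul, htr]) with ⟨⟨g, hg⟩, -⟩ | ⟨-, c, Y, -, hc, -, -, hall⟩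
    · exact absurd (by rw [← hρ g, Complex.conj_ofReal]) hg
    · set Z : Matrix (Fin n) (Fin n) ℂ := RealChar.formProj M 1 1 with hZ
      have hfix : RealChar.formProj M 1 Z = Z :=
        RealChar.formProj_idem M 1 (one_mul 1) (fun g => by simp) 1
      have hsym : Zᵀ = Z := by
        rw [hZ, ← RealChar.formProj_comm_transpose, Matrix.transpose_one]
      have hZ0 : Z.PosDef := by
        rw [hZ, RealChar.formProj_apply]
        have hconj : ∀ g, (M g)ᵀ = (M g)ᴴ := fun g => by
          ext i j
          exact (Complex.conj_ofReal _).symm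
        have hN : (0 : ℂ) < (Nat.card G : ℂ)⁻¹ := by
          rw [← Complex.ofReal_natCast, ← Complex.ofReal_inv]
          exact_mod_cast inv_pos.2 (Nat.cast_pos.2 Nat.card_pos : (0 : ℝ) < Nat.card G)
        refine Matrix.PosDef.smul ?_ hN
        simp only [one_mul, Matrix.mul_one, hconj]
        rw [← Finset.add_sum_erase _ _ (Finset.mem_univ (1 : G)), map_one,
          Matrix.conjTranspose_one, one_mul]
        exact Matrix.PosDef.one.add_posSemidef
          (Matrix.posSemidef_sum _ fun g _ => Matrix.posSemidef_conjTranspose_mul_self _)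
      have hne : Z ≠ 0 := by
        rcases n with - | n
        · obtain ⟨d, hd, hd1⟩ := irr_one_pos hχ
          have h1 := htr 1
          rw [hd1] at h1
          simp [Matrix.trace] at h1
          exact absurd (show False from hd.ne' (by exact_mod_cast h1.symm)) id
        · intro h
          have := hZ0.diag_pos (i := (0 : Fin (n + 1)))
          rw [h] at this
          simp at this
      have h1 : c • Z = (1 : ℂ) • Z := by rw [one_smul, ← hall Z hfix, hsym]
      rw [hc]
      exact smul_left_injective ℂ hne h1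

end Cfsg.Agent.Char
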