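import Cfsg.Agent.Char.Thompson
import Cfsg.Agent.CharExt.Gallagher
import Cfsg.Agent.CharInd.Clifford

/-!
# The sum of squares of degrees over characters of p'-degree and p'-determinantal order
-/

set_option autoImplicit false
set_option linter.style.haveILetI false
set_option linter.unusedSectionVars false

open scoped ComplexConjugate
open Module

namespace Cfsg.Agent.Char

universe u

variable {G : Type u} [Group G] [Finite G] {p : ℕ} [Fact p.Prime]

/-- An irreducible character of `p'`-degree and `p'`-determinantal order restricts to an invariant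
irreducible character of `O^p(G)` and is the extension given by `exists_extension_pResidual`. -/
theorem exists_invariant_of_pPrime (χ : IrrCharacter G)
    (hd : ¬ p ∣ Cfsg.charDegree (χ : G → ℂ)) (ho : ¬ p ∣ Cfsg.detOrder (χ : G → ℂ)) :
    ∃ θ : IrrCharacter (Cfsg.pResidual p G), (∀ (g : G) (n : Cfsg.pResidual p G),
        (θ : _ → ℂ) (MulAut.conjNormal g n) = (θ : _ → ℂ) n) ∧
      ¬ p ∣ Cfsg.charDegree (θ : Cfsg.pResidual p G → ℂ) ∧
      ∀ χ' : IrrCharacter G, (∀ n : Cfsg.pResidual p G, (χ' : G → ℂ) n = (θ : _ → ℂ) n) →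
        ¬ p ∣ orderOf (Cfsg.detChar (χ' : G → ℂ)) → χ' = χ := by
  classical
  letI := Fintype.ofFinite G
  letI : Fintype (Cfsg.pResidual p G) := Fintype.ofFinite _
  have hp : p.Prime := Fact.out
  obtain ⟨k, hk⟩ := Transfer.exists_index_pResidual_eq_pow (p := p) (G := G)
  obtain ⟨θ, e, hθ, he, hres, h1⟩ := CharInd.clifford_exists (Cfsg.pResidual p G) χ.2
  obtain ⟨hθd, hθ1⟩ := irr_charDegree_spec hθ
  rw [(irr_charDegree_spec χ.2).2, hθ1] at h1
  have h1' : Cfsg.charDegree (χ : G → ℂ)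
      = e * (CharInd.conjClass (Cfsg.pResidual p G) θ).card * Cfsg.charDegree θ := by
    exact_mod_cast h1
  have hdvd : (CharInd.conjClass (Cfsg.pResidual p G) θ).card ∣ p ^ k := by
    let S : Subgroup G :=
      { carrier := {x | CharInd.conjChar (Cfsg.pResidual p G) x θ = θ}
        one_mem' := CharInd.conjChar_one _ θ
        mul_mem' := fun {a b} (ha : CharInd.conjChar _ a θ = θ) (hb : CharInd.conjChar _ b θ = θ) =>
          show CharInd.conjChar _ (a * b) θ = θ by rw [CharInd.conjChar_mul, ha, hb]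
        inv_mem' := fun {a} (ha : CharInd.conjChar _ a θ = θ) => by
          show CharInd.conjChar _ a⁻¹ θ = θ
          conv_lhs => rw [← ha, ← CharInd.conjChar_mul, mul_inv_cancel, CharInd.conjChar_one] }
    have hS : (Cfsg.pResidual p G) ≤ S := fun x hx =>
      CharInd.conjChar_isClassFunction_mem _ (irr_isClassFunction hθ) ⟨x, hx⟩
    have hcard : (CharInd.conjClass (Cfsg.pResidual p G) θ).card = S.index := by
      rw [Subgroup.index, ← Nat.card_eq_finsetCard]
      have hkey : ∀ a b : G, CharInd.conjChar (Cfsg.pResidual p G) a⁻¹ θ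
          = CharInd.conjChar (Cfsg.pResidual p G) b⁻¹ θ ↔ a⁻¹ * b ∈ S := fun a b => by
        show _ ↔ CharInd.conjChar _ (a⁻¹ * b) θ = θ
        rw [CharInd.conjChar_mul]
        constructor
        · intro h; rw [h, ← CharInd.conjChar_mul, inv_mul_cancel, CharInd.conjChar_one]
        · intro h
          conv_rhs => rw [← h, ← CharInd.conjChar_mul, mul_inv_cancel, CharInd.conjChar_one]
      refine (Nat.card_congr (Equiv.ofBijective (fun q : G ⧸ S => (⟨Quotient.liftOn q
        (fun a => CharInd.conjChar (Cfsg.pResidual p G) a⁻¹ θ)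
        (fun a b h => (hkey a b).mpr (QuotientGroup.leftRel_apply.mp h)), ?_⟩ :
          (CharInd.conjClass (Cfsg.pResidual p G) θ))) ⟨?_, ?_⟩)).symm
      · induction q using Quotient.inductionOn with
        | _ a => exact CharInd.mem_conjClass _ |>.mpr ⟨a⁻¹, rfl⟩
      · intro a b h
        induction a using Quotient.inductionOn with | _ a =>
        induction b using Quotient.inductionOn with | _ b =>
        exact Quotient.sound (QuotientGroup.leftRel_apply.mpr ((hkey a b).mp (congrArg Subtype.val h)))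
      · rintro ⟨ψ, hψ⟩
        obtain ⟨x, rfl⟩ := (CharInd.mem_conjClass _).mp hψ
        exact ⟨(x⁻¹ : G), Subtype.ext (by
          show CharInd.conjChar _ (x⁻¹)⁻¹ θ = _
          rw [inv_inv])⟩
    rw [hcard, ← hk]
    exact Subgroup.index_dvd_of_le hS
  have hc : (CharInd.conjClass (Cfsg.pResidual p G) θ).card = 1 := by
    obtain ⟨i, -, hi⟩ := (Nat.dvd_prime_pow hp).mp hdvd
    rcases Nat.eq_zero_or_pos i with h0 | h0
    · rw [hi, h0, pow_zero]
    · exact absurd (h1' ▸ (Dvd.dvd.mul_right (Dvd.dvd.mul_left (hi ▸ dvd_pow_self p h0.ne') e) _)) hd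
  obtain ⟨ψ, hψ⟩ := Finset.card_eq_one.mp hc
  have hψθ : ψ = θ := by
    have : θ ∈ CharInd.conjClass (Cfsg.pResidual p G) θ :=
      (CharInd.mem_conjClass _).mpr ⟨1, (CharInd.conjChar_one _ θ).symm⟩
    rw [hψ, Finset.mem_singleton] at this
    exact this.symm
  subst hψθ
  have hinv : ∀ (g : G) (n : Cfsg.pResidual p G), ψ (MulAut.conjNormal g n) = ψ n := fun g n => by
    have hm : CharInd.conjChar (Cfsg.pResidual p G) g ψ ∈ CharInd.conjClass (Cfsg.pResidual p G) ψ :=
      (CharInd.mem_conjClass _).mpr ⟨g, rfl⟩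
    rw [hψ, Finset.mem_singleton] at hm
    exact congrFun hm n
  rw [hψ, Finset.sum_singleton] at hres
  rw [hc, mul_one] at h1'
  have hpθ : ¬ p ∣ Cfsg.charDegree ψ := fun h => hd (h1' ▸ dvd_mul_of_dvd_right h e)
  refine ⟨⟨ψ, hθ⟩, hinv, hpθ, fun χ' hext ho' => ?_⟩
  have hres' : (fun n : Cfsg.pResidual p G => (χ' : G → ℂ) n) = ψ := funext hext
  obtain ⟨m, hm, -⟩ := isCharacter_exists_coeff
    (CharInd.isCharacter_indFun (Cfsg.pResidual p G) (θ := fun _ => (1 : ℂ)) isCharacter_const_one)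
  have hind : Cfsg.indFun (Cfsg.pResidual p G) ψ
      = Cfsg.indFun (Cfsg.pResidual p G) (fun _ => 1) * (χ' : G → ℂ) := by
    rw [← CharInd.indFun_mul_res (Cfsg.pResidual p G) (fun _ => 1) (irr_isClassFunction χ'.2)]
    simp only [one_mul, hres']
  have hne : Cfsg.classInner (Cfsg.indFun (Cfsg.pResidual p G) ψ) (χ : G → ℂ) ≠ 0 := by
    rw [CharInd.classInner_indFun_left _ _ (irr_isClassFunction χ.2), hres, classInner_smul_right,
      classInner_irr_self hθ]
    simpa using Nat.pos_iff_ne_zero.mp he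
  obtain ⟨β, hβm, hβ0⟩ : ∃ β : IrrCharacter G, m β ≠ 0 ∧
      Cfsg.classInner ((β : G → ℂ) * (χ' : G → ℂ)) (χ : G → ℂ) ≠ 0 := by
    by_contra hcon
    push Not at hcon
    apply hne
    rw [hind, hm, Finset.sum_mul, classInner_sum_left]
    refine Finset.sum_eq_zero fun β _ => ?_
    rw [smul_mul_assoc, ← Nat.cast_smul_eq_nsmul ℂ, classInner_smul_left]
    by_cases hm0 : m β = 0
    · simp [hm0]
    · rw [hcon β hm0, mul_zero]
  have hβ1 : Cfsg.classInner (Cfsg.indFun (Cfsg.pResidual p G) (fun _ => 1)) (β : G → ℂ) ≠ 0 := by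
    rw [hm, classInner_sum_left, Finset.sum_eq_single β]
    · rw [← Nat.cast_smul_eq_nsmul ℂ, classInner_smul_left, classInner_irr_self β.2, mul_one]
      exact_mod_cast hβm
    · intro b _ hb
      rw [← Nat.cast_smul_eq_nsmul ℂ, classInner_smul_left,
        classInner_irr_ne b.2 β.2 fun h => hb (Subtype.ext h), mul_zero]
    · simp
  have hβN : ∀ (n : Cfsg.pResidual p G) (g : G), (β : G → ℂ) ((n : G) * g) = (β : G → ℂ) g :=
    CharExt.inv_of_constituent _ β.2 hβ1
  have hχ'N : Cfsg.IsIrrCharacter (Cfsg.pResidual p G) (fun n => (χ' : G → ℂ) n) := hres' ▸ hθ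
  have hprod := CharExt.isIrrCharacter_mul (Cfsg.pResidual p G) (χ' : G → ℂ) χ'.2 hχ'N β.2 hβN
  have hχeq : (β : G → ℂ) * (χ' : G → ℂ) = (χ : G → ℂ) := by
    by_contra hcon
    exact hβ0 (classInner_irr_ne hprod χ.2 hcon)
  -- `β` is linear of `p`-power order
  obtain ⟨b, hb, hb1⟩ := irr_exists_descend β.2 (Cfsg.pResidual p G)
    (fun n hn => by simpa using hβN ⟨n, hn⟩ 1)
  obtain ⟨d, -, hd1, hdd⟩ := irr_degree_dvd_card hb
  rw [← Subgroup.index_eq_card, hk] at hdd
  obtain ⟨i, -, rfl⟩ := (Nat.dvd_prime_pow hp).mp hdd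
  have hβdeg : (β : G → ℂ) 1 = ((p ^ i : ℕ) : ℂ) := by rw [hb1 1, QuotientGroup.mk_one, hd1]
  have hdχ : Cfsg.charDegree (χ : G → ℂ) = p ^ i * Cfsg.charDegree (χ' : G → ℂ) := by
    refine charDegree_of_eq ?_
    rw [← hχeq, Pi.mul_apply, hβdeg, (irr_charDegree_spec χ'.2).2]
    push_cast; ring
  have hi : i = 0 := by
    by_contra h0
    exact hd (hdχ ▸ dvd_mul_of_dvd_left (dvd_pow_self p h0) _)
  subst hi
  rw [pow_zero, Nat.cast_one] at hβdeg
  rw [pow_zero, one_mul] at hdχ
  obtain ⟨f, hf⟩ := exists_monoidHom_of_degree_one (isCharacter_of_irr β.2) hβdeg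
  have hfN : ∀ n ∈ Cfsg.pResidual p G, f n = 1 := fun n hn => Units.ext (by
    rw [← hf, Units.val_one, ← hβdeg]
    simpa using hβN ⟨n, hn⟩ 1)
  obtain ⟨n', ρ', hρ'⟩ := isCharacter_of_irr χ'.2
  let σ : Representation ℂ G (Fin n' → ℂ) :=
    { toFun := fun g => (f g : ℂ) • ρ' g
      map_one' := by simp
      map_mul' := fun a b => by simp [smul_smul, mul_comm] }
  have hσ : σ.character = (χ : G → ℂ) := by
    rw [← hχeq, ← hρ']
    ext g
    show LinearMap.trace ℂ _ ((f g : ℂ) • ρ' g) = _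
    rw [map_smul, smul_eq_mul, Pi.mul_apply, hf]
    rfl
  have hn'd : n' = Cfsg.charDegree (χ : G → ℂ) := by
    rw [← hσ]
    refine (charDegree_of_eq ?_).symm
    rw [σ.char_one]; simp
  have hdet : Cfsg.detChar (χ : G → ℂ)
      = CharExt.homVal (f ^ n') * Cfsg.detChar (χ' : G → ℂ) := by
    ext g
    rw [Pi.mul_apply, CharExt.detChar_eq σ hσ, CharExt.detChar_eq ρ' hρ']
    show LinearMap.det ((f g : ℂ) • ρ' g) = _
    rw [LinearMap.det_smul, Module.finrank_fintype_fun_eq_card, Fintype.card_fin]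
    show _ = ((f ^ n') g : ℂ) * _
    rw [MonoidHom.pow_apply, Units.val_pow_eq_pow_val]
  have hf1 : ∀ g, f g = 1 := by
    intro g
    have hl := CharExt.detChar_isLin (χ : G → ℂ)
    have hl' := CharExt.detChar_isLin (χ' : G → ℂ)
    have hh : hl.toHom g = f g ^ n' * hl'.toHom g := Units.ext (by
      rw [Units.val_mul, hl.toHom_apply, hl'.toHom_apply, Units.val_pow_eq_pow_val]
      exact congrFun hdet g)
    set o := orderOf hl.toHom with hodef
    set o' := orderOf hl'.toHom with ho'def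
    have hoc : ¬ p ∣ o := by rw [hodef, ← hl.orderOf_eq]; exact ho
    have hoc' : ¬ p ∣ o' := by rw [ho'def, ← hl'.orderOf_eq]; exact ho'
    have hog : hl.toHom g ^ o = 1 := by
      rw [← MonoidHom.pow_apply, hodef, pow_orderOf_eq_one, MonoidHom.one_apply]
    have hog' : hl'.toHom g ^ o' = 1 := by
      rw [← MonoidHom.pow_apply, ho'def, pow_orderOf_eq_one, MonoidHom.one_apply]
    have h1 : f g ^ n' = hl.toHom g * (hl'.toHom g)⁻¹ := by rw [hh, mul_inv_cancel_right]
    have h2 : f g ^ (n' * (o * o')) = 1 := by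
      rw [pow_mul, h1, mul_pow, inv_pow, pow_mul, hog, one_pow, mul_comm o, pow_mul, hog', one_pow,
        inv_one, mul_one]
    have hcop : Nat.Coprime (p ^ k) (n' * (o * o')) :=
      Nat.Coprime.pow_left k (hp.coprime_iff_not_dvd.mpr
        (hp.not_dvd_mul (hn'd ▸ hd) (hp.not_dvd_mul hoc hoc')))
    rw [← orderOf_eq_one_iff]
    refine Nat.eq_one_of_dvd_coprimes hcop (orderOf_dvd_of_pow_eq_one ?_) (orderOf_dvd_of_pow_eq_one h2)
    rw [← map_pow]
    exact hfN _ (hk ▸ Subgroup.pow_index_mem _ g)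
  refine Subtype.ext ?_
  rw [← hχeq]
  funext g
  rw [Pi.mul_apply, hf, hf1, Units.val_one, one_mul]

open scoped Classical in
theorem card_pResidual_modEq_sum [Fintype (IrrCharacter G)] :
    (Nat.card (Cfsg.pResidual p G) : ZMod p) = ∑ χ ∈ Finset.univ.filter
      (fun χ : IrrCharacter G => ¬ p ∣ Cfsg.charDegree (χ : G → ℂ) ∧
        ¬ p ∣ Cfsg.detOrder (χ : G → ℂ)),
      ((Cfsg.charDegree (χ : G → ℂ) : ℕ) : ZMod p) ^ 2 := by
  rw [card_pResidual_eq_sum]
  choose F hF1 hF2 using fun (θ : IrrCharacter (Cfsg.pResidual p G))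
    (h : (∀ (g : G) (n : Cfsg.pResidual p G),
      (θ : _ → ℂ) (MulAut.conjNormal g n) = (θ : _ → ℂ) n) ∧
        ¬ p ∣ Cfsg.charDegree (θ : Cfsg.pResidual p G → ℂ)) =>
      exists_extension_pResidual θ h.1 h.2
  have hdegF : ∀ θ h, Cfsg.charDegree ((F θ h : IrrCharacter G) : G → ℂ)
      = Cfsg.charDegree (θ : Cfsg.pResidual p G → ℂ) := fun θ h => charDegree_of_eq (by
    have := hF1 θ h 1
    rw [OneMemClass.coe_one] at this
    rw [this]; exact (irr_charDegree_spec θ.2).2)
  refine Finset.sum_bij (fun θ hθ => F θ (Finset.mem_filter.mp hθ).2) (fun θ hθ => ?_)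
    (fun a ha b hb h => ?_) (fun χ hχ => ?_) (fun θ hθ => by rw [hdegF])
  · refine Finset.mem_filter.mpr ⟨Finset.mem_univ _, ?_, hF2 _ _⟩
    rw [hdegF]; exact (Finset.mem_filter.mp hθ).2.2
  · exact Subtype.ext (funext fun n => by rw [← hF1 a (Finset.mem_filter.mp ha).2, ← hF1 b (Finset.mem_filter.mp hb).2, h])
  · obtain ⟨-, hd, ho⟩ := Finset.mem_filter.mp hχ
    obtain ⟨θ, h1, h2, h3⟩ := exists_invariant_of_pPrime χ hd ho
    exact ⟨θ, Finset.mem_filter.mpr ⟨Finset.mem_univ _, h1, h2⟩, h3 _ (hF1 _ _) (hF2 _ _)⟩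

end Cfsg.Agent.Char
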